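import Cfsg.Agent.H477.HC.Trans

/-!
# The local term on the stabiliser of a flag `W₀ ≤ Lam` of totally singular subspaces (helper690)

* `exists_ext_le` : an automorphism of `W₀` extends to `Lam`;
* `exists_flag` : every automorphism of `W₀` is induced by an isometry that stabilises `Lam`;
* `isIrr_flagTerm` : `x ↦ c (x | W₀)` is an irreducible character of the stabiliser of the flag.
-/

set_option autoImplicit false

open scoped ComplexConjugate
open Cfsg

namespace Cfsg.Agent.H690.HT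

open Cfsg.Agent.OddOrderCharacters.Clifford Cfsg.Agent.Characters MulAction Module Cfsg.Agent.H53.HC
open Cfsg.Agent.H477.HC

universe u v

variable {K : Type u} [Field K] {V : Type v} [AddCommGroup V] [Module K V]

/-- an automorphism of `W₀` extends to `Lam ≥ W₀` -/
theorem exists_ext_le {W₀ Lam : Submodule K V} (hW : W₀ ≤ Lam) (a : W₀ ≃ₗ[K] W₀) :
    ∃ a' : Lam ≃ₗ[K] Lam, ∀ w : W₀, ((a' ⟨w, hW w.2⟩ : Lam) : V) = a w := by
  classical
  obtain ⟨C, hC⟩ := Submodule.exists_isCompl (W₀.comap Lam.subtype)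
  let a₀ : W₀.comap Lam.subtype ≃ₗ[K] W₀.comap Lam.subtype :=
    ((Submodule.comapSubtypeEquivOfLe hW).trans a).trans (Submodule.comapSubtypeEquivOfLe hW).symm
  let a' : Lam ≃ₗ[K] Lam :=
    ((Submodule.prodEquivOfIsCompl _ _ hC).symm.trans (a₀.prodCongr (LinearEquiv.refl K C))).trans
    (Submodule.prodEquivOfIsCompl _ _ hC)
  refine ⟨a', fun w => ?_⟩
  change (((Submodule.prodEquivOfIsCompl _ _ hC) ((a₀.prodCongr (LinearEquiv.refl K C))
    ((Submodule.prodEquivOfIsCompl _ _ hC).symm ⟨w, hW w.2⟩)) : Lam) : V) = _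
  have : (Submodule.prodEquivOfIsCompl _ _ hC).symm ⟨w, hW w.2⟩ = (⟨⟨w, hW w.2⟩, w.2⟩, 0) := by
    rw [LinearEquiv.symm_apply_eq]
    simp
  rw [this]
  simp [a₀]
  rfl

variable (F : CForm K V)

/-- every automorphism of `W₀` is induced by an isometry that stabilises `Lam` -/
theorem exists_flag [FiniteDimensional K V] {Lam W₀ : Submodule K V} (hL : F.TS Lam) (hW : W₀ ≤ Lam)
    (a : W₀ ≃ₗ[K] W₀) :
    ∃ g : F.iso, g ∈ stabW F.iso.subtype W₀ ∧ g ∈ stabW F.iso.subtype Lam ∧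
      ∀ w : W₀, (g : V ≃ₗ[K] V) w = a w := by
  obtain ⟨a', ha'⟩ := exists_ext_le hW a
  obtain ⟨g, hg⟩ := F.exists_levi' hL a'
  have h1 : ∀ w : W₀, (g : V ≃ₗ[K] V) w = a w := fun w => (hg ⟨w, hW w.2⟩).trans (ha' w)
  refine ⟨g, map_eq_of_le F.iso.subtype fun w hw => ?_, map_eq_of_le F.iso.subtype fun w hw => ?_, h1⟩
  · change (g : V ≃ₗ[K] V) w ∈ W₀
    rw [h1 ⟨w, hw⟩]
    exact (a ⟨w, hw⟩).2
  · change (g : V ≃ₗ[K] V) w ∈ Lam
    rw [hg ⟨w, hw⟩]
    exact (a' ⟨w, hw⟩).2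

/-- **(K2)** the local term is an irreducible character of the stabiliser of the flag -/
theorem isIrr_flagTerm [FiniteDimensional K V] {k : ℕ} {c : GL (Fin k) K → ℂ}
    (hc : IsIrrCharacter _ c) {Lam W₀ : Submodule K V} (hL : F.TS Lam) (hW : W₀ ≤ Lam)
    (hWk : finrank K W₀ = k) :
    IsIrrCharacter (stabW F.iso.subtype W₀ ⊓ stabW F.iso.subtype Lam : Subgroup F.iso)
      (fun x => flagTerm F.iso.subtype c (x : F.iso) W₀) := by
  classical
  have hcf := Core.isIrr_isClassFunction hc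
  let b₀ : Basis (Fin k) K W₀ := finBasisOfFinrankEq K W₀ hWk
  let f : (stabW F.iso.subtype W₀ ⊓ stabW F.iso.subtype Lam : Subgroup F.iso) →* GL (Fin k) K :=
    (glE b₀).toMonoidHom.comp ((resHom F.iso.subtype W₀).comp (Subgroup.inclusion inf_le_left))
  have hf : Function.Surjective f := by
    intro A
    obtain ⟨a, rfl⟩ := (glE b₀).surjective A
    obtain ⟨g, hg1, hg2, hg⟩ := exists_flag F hL hW a
    refine ⟨⟨g, hg1, hg2⟩, ?_⟩
    change glE b₀ (res (F.iso.subtype g) W₀ hg1) = glE b₀ a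
    congr 1
    ext w
    exact hg w
  have e1 : (fun x : (stabW F.iso.subtype W₀ ⊓ stabW F.iso.subtype Lam : Subgroup F.iso) =>
      flagTerm F.iso.subtype c (x : F.iso) W₀) = c ∘ f := by
    ext x
    rw [flagTerm_of F.iso.subtype c x.2.1, cl_eq hcf b₀]
    rfl
  rw [e1]
  exact Core.isIrr_comp f hf hc

end Cfsg.Agent.H690.HT
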